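import Cfsg.Agent.H709.UX.Two
import Cfsg.Agent.H141.Ux.Stmts

/-!
# S5716: the task UF1 (helper709)
-/

set_option autoImplicit false

namespace Cfsg.Agent.H709.UX

open Module

/-- **UF1** (growth, symplectic groups, characteristic two) -/
theorem uf1 : Cfsg.Agent.H141.Ux.UF1 := by
  intro F V _ _ _ _ _ Φ q H W hΦ h2 hH hirr hW hd hS
  rcases growth hΦ h2 hH hirr hW (by omega) hS with h | ⟨D, h1, h3⟩
  · exact Or.inl h
  · exact Or.inr ⟨D, h1, by omega⟩

end Cfsg.Agent.H709.UX
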